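import Cfsg.Agent.Lib.Helper33.SectionTransferChief

set_option autoImplicit false

namespace Cfsg.Agent.Lib.Helper33

open scoped Pointwise
open Cfsg

universe u

variable {X : Type u} [Group X] [Finite X] {p : ℕ} [Fact p.Prime]
  {𝓦 : Set (∀ (Q : Type u) [Group Q], Subgroup Q)}

/-- the condition `O_p(X) ∩ X' ≤ FD` does not depend on the Sylow subgroup. -/
theorem pCore_inf_commutator_le_all (h𝓦 : ∀ W ∈ 𝓦, IsCharPFunctor.{u} p W) (S T : Sylow p X)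
    (h : pCore p X ⊓ _root_.commutator X ≤ FD (ind X 𝓦) ⊤ S) :
    pCore p X ⊓ _root_.commutator X ≤ FD (ind X 𝓦) ⊤ T := by
  obtain ⟨x, hx, hxS⟩ := (relSyl_top T).exists_conj_eq (relSyl_top S)
  have hRn : (pCore p X).Normal := pCore_normal
  have h1 : MulAut.conj x • (pCore p X ⊓ _root_.commutator X) ≤
      MulAut.conj x • FD (ind X 𝓦) ⊤ S := Subgroup.pointwise_smul_le_pointwise_smul_iff.2 h
  rw [← FD_conj (ind_isConjugacyFunctor h𝓦) S.2 hx, hxS, Subgroup.Normal.conj_smul_eq_self] at h1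
  exact h1

theorem CT_of_pCore_le (h𝓦 : ∀ W ∈ 𝓦, IsCharPFunctor.{u} p W) (S : Sylow p X)
    (hsub : ∀ H : Subgroup X, H ≠ ⊤ → CT p 𝓦 ↥H)
    (hquot : ∀ (N : Subgroup X) [N.Normal], N ≠ ⊥ → CT p 𝓦 (X ⧸ N))
    (h : pCore p X ⊓ _root_.commutator X ≤ FD (ind X 𝓦) ⊤ S) : CT p 𝓦 X :=
  CT_step h𝓦 hsub hquot fun _ T => pCore_inf_commutator_le_all h𝓦 S T h

/-- the centralizer of `R / T₀`. -/
def centMod (R T₀ : Subgroup X) [hR : R.Normal] : Subgroup X where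
  carrier := {g | ∀ x ∈ R, g * x * g⁻¹ * x⁻¹ ∈ T₀}
  one_mem' := fun x _ => by simp
  mul_mem' := by
    intro g h hg hh x hx
    have e : g * h * x * (g * h)⁻¹ * x⁻¹ =
        (g * (h * x * h⁻¹) * g⁻¹ * (h * x * h⁻¹)⁻¹) * (h * x * h⁻¹ * x⁻¹) := by group
    rw [e]
    exact T₀.mul_mem (hg _ (hR.conj_mem x hx h)) (hh x hx)
  inv_mem' := by
    intro g hg x hx
    have e : g⁻¹ * x * g⁻¹⁻¹ * x⁻¹ = (g * (g⁻¹ * x * g) * g⁻¹ * (g⁻¹ * x * g)⁻¹)⁻¹ := by group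
    rw [e]
    exact T₀.inv_mem (hg _ (hR.conj_mem' x hx g))

omit [Finite X] in
theorem centMod_normal (R T₀ : Subgroup X) [hR : R.Normal] [hT : T₀.Normal] :
    (centMod R T₀).Normal := by
  constructor
  intro g hg k x hx
  have e : k * g * k⁻¹ * x * (k * g * k⁻¹)⁻¹ * x⁻¹ =
      k * (g * (k⁻¹ * x * k) * g⁻¹ * (k⁻¹ * x * k)⁻¹) * k⁻¹ := by group
  rw [e]
  exact hT.conj_mem _ (hg _ (hR.conj_mem' x hx k)) k

/-- structure of a minimal group in which transfer is not controlled. -/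
theorem minimal_transfer (h𝓦 : ∀ W ∈ 𝓦, IsCharPFunctor.{u} p W) (hne : 𝓦.Nonempty)
    (S : Sylow p X)
    (hsub : ∀ H : Subgroup X, H ≠ ⊤ → CT p 𝓦 ↥H)
    (hquot : ∀ (N : Subgroup X) [N.Normal], N ≠ ⊥ → CT p 𝓦 (X ⧸ N))
    (hX : ¬ CT p 𝓦 X) (T M : Subgroup X) (hT : T = FD (ind X 𝓦) ⊤ S)
    (hM : M = Subgroup.normalizer ((T ⊓ pCore p X : Subgroup X) : Set X)) :
    Subgroup.centralizer ((pCore p X : Subgroup X) : Set X) ≤ pCore p X ∧
    (M ≠ ⊤ ∧ ∀ H : Subgroup X, (S : Subgroup X) ≤ H → H ≠ ⊤ → H ≤ M) ∧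
    (⁅pCore p X, M⁆ ≤ pCore p X ⊓ ⁅M, M⁆ ∧ pCore p X ⊓ ⁅M, M⁆ ≤ pCore p X ⊓ T) ∧
    ∀ u : X, u ∈ (S : Subgroup X) → u ∉ pCore p X → ∃ U V : Subgroup X, IsChiefFactor U V ∧
      U ≤ pCore p X ∧ ¬ iterCommutator U (Subgroup.zpowers u) (p - 1) ≤ V := by
  have hRn : (pCore p X).Normal := pCore_normal
  have hRS : pCore p X ≤ (S : Subgroup X) := pCore_le_sylow S
  set R := pCore p X with hR
  have hnle : ¬ R ⊓ _root_.commutator X ≤ T := fun h =>
    hX (CT_of_pCore_le h𝓦 S hsub hquot (hT ▸ h))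
  have hover : ∀ H : Subgroup X, (S : Subgroup X) ≤ H → H ≠ ⊤ →
      (S : Subgroup X) ⊓ ⁅H, H⁆ ≤ T := fun H hSH hH =>
    hT ▸ inf_commutator_le_FD_of_sub h𝓦 S hSH (hsub H hH)
  -- `S` is not normal
  have hSnn : Subgroup.normalizer ((S : Subgroup X) : Set X) ≠ ⊤ := by
    intro htop
    apply hX
    rw [CT_iff h𝓦 S, FD_ind]
    obtain ⟨W, hW⟩ := hne
    refine le_trans ?_ (le_iSup₂ (f := fun W (_ : W ∈ 𝓦) => (S : Subgroup X) ⊓
      ⁅⊤ ⊓ Subgroup.normalizer ((inducedFunctor W (S : Subgroup X) : Subgroup X) : Set X),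
        ⊤ ⊓ Subgroup.normalizer ((inducedFunctor W (S : Subgroup X) : Subgroup X) : Set X)⁆) W hW)
    have h1 : Subgroup.normalizer ((inducedFunctor W (S : Subgroup X) : Subgroup X) : Set X) = ⊤ :=
      top_le_iff.1 (htop ▸ IsConjugacyFunctor.normalizer_le
        (isConjugacyFunctor_induced (h𝓦 W hW)) S.2)
    rw [h1, top_inf_eq]
    exact le_rfl
  have hStop : (S : Subgroup X) ≠ ⊤ := by
    intro htop
    apply hSnn
    rw [htop]
    exact Subgroup.normalizer_eq_top_iff.2 inferInstance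
  have hSD : ⁅(S : Subgroup X), (S : Subgroup X)⁆ ≤ T :=
    (le_inf (Subgroup.commutator_le_self _) le_rfl).trans (hover _ le_rfl hStop)
  -- commutators with proper overgroups of `S`
  have hcomm : ∀ H : Subgroup X, (S : Subgroup X) ≤ H → H ≠ ⊤ → ∀ h ∈ H, ∀ x ∈ R,
      h * x * h⁻¹ * x⁻¹ ∈ T ⊓ R := by
    intro H hSH hH h hh x hx
    have h1 : h * x * h⁻¹ * x⁻¹ ∈ R := R.mul_mem (hRn.conj_mem x hx h) (R.inv_mem hx)
    exact ⟨hover H hSH hH ⟨hRS h1, Subgroup.commutator_mem_commutator hh (hSH (hRS hx))⟩, h1⟩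
  have hmax : ∀ H : Subgroup X, (S : Subgroup X) ≤ H → H ≠ ⊤ → H ≤ M := by
    intro H hSH hH h hh
    rw [hM, mem_normalizer_iff_smul]
    apply conj_smul_eq_of_le
    rintro _ ⟨x, hx, rfl⟩
    have h1 := hcomm H hSH hH h hh x hx.2
    have h2 := (T ⊓ R).mul_mem h1 hx
    rw [inv_mul_cancel_right] at h2
    exact h2
  have hMtop : M ≠ ⊤ := by
    intro htop
    apply hnle
    have hT₀n : (T ⊓ R).Normal := Subgroup.normalizer_eq_top_iff.1 (hM ▸ htop)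
    have hCn : (centMod R (T ⊓ R)).Normal := centMod_normal R (T ⊓ R)
    have hSC : (S : Subgroup X) ≤ centMod R (T ⊓ R) :=
      fun s hs x hx => hcomm _ le_rfl hStop s hs x hx
    have hNC : Subgroup.normalizer ((S : Subgroup X) : Set X) ≤ centMod R (T ⊓ R) :=
      fun s hs x hx => hcomm _ Subgroup.le_normalizer hSnn s hs x hx
    refine normal_inf_commutator_le S hRS hSD ?_
    intro g x hx
    have hrel : RelSyl p (S : Subgroup X) (centMod R (T ⊓ R)) := (relSyl_top S).mono hSC le_top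
    obtain ⟨c, hc, n, hn, rfl⟩ := frattini hrel g (Subgroup.Normal.conj_smul_eq_self g _)
    exact ((centMod R (T ⊓ R)).mul_mem hc (hNC hn) x hx).1
  have hSM : (S : Subgroup X) ≤ M := hmax _ le_rfl hStop
  refine ⟨?_, ⟨hMtop, hmax⟩, ⟨?_, ?_⟩, ?_⟩
  · by_contra hC
    exact hX (CT_step h𝓦 hsub hquot fun h => absurd h hC)
  · exact le_inf (Subgroup.commutator_le_left _ _) (Subgroup.commutator_mono (hRS.trans hSM) le_rfl)
  · exact le_inf inf_le_left ((inf_le_inf_right _ hRS).trans (hover M hSM hMtop))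
  · intro u huS huR
    by_contra hcon
    push Not at hcon
    apply hnle
    rw [hT]
    exact pCore_inf_commutator_le_of_chief h𝓦 S hsub huS huR hcon

end Cfsg.Agent.Lib.Helper33
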