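import Cfsg.Agent.Lib.Helper33.FusionQuot
import Cfsg.Agent.Lib.Helper33.FusionDecomp
import Cfsg.Agent.Lib.Helper33.Sections
import Cfsg.Agent.Lib.Helper33.SectionTransfer
import Cfsg.Agent.S1959

set_option autoImplicit false

namespace Cfsg.Agent.Lib.Helper33

open scoped Pointwise
open Cfsg

universe u

theorem FusionRel.of_stepChain_inv {G : Type*} [Group G] {Good : Set G → G → Prop}
    (hG : FusionRel Good) {step : Set G → G → Prop} (Inv : Set G → Prop)
    (hinv : ∀ (A : Set G) (g : G), Inv A → Inv (MulAut.conj g • A))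
    (hs : ∀ A x, Inv A → step A x → Good A x) {A : Set G} {g : G} (hA : Inv A)
    (h : StepChain step A g) : Good A g := by
  induction h with
  | nil => exact hG.one A
  | snoc k x _ hx ih => exact hG.trans _ _ _ ih (hs _ _ (hinv _ _ hA) hx)

variable {X : Type u} [Group X] [Finite X] {p : ℕ} [Fact p.Prime]

/-- `X = S C_X(R)`: an element acting trivially on `U / R`, where `U ⊇ R` is fully normalized,
acts on `U` as an element of `S`. -/
theorem exists_mem_sylow_of_trivial_mod (S : Sylow p X) {R : Subgroup X} [hR : R.Normal]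
    (hRS : R ≤ (S : Subgroup X))
    (hX : ∀ x : X, ∃ s ∈ (S : Subgroup X), ∃ c ∈ Subgroup.centralizer (R : Set X), x = s * c)
    {U : Subgroup X} (hRU : R ≤ U)
    (hU : RelSyl p ((S : Subgroup X) ⊓ Subgroup.normalizer (U : Set X))
      (Subgroup.normalizer (U : Set X)))
    {h : X} (hh : ∀ u ∈ U, h * u * h⁻¹ * u⁻¹ ∈ R) :
    ∃ s ∈ (S : Subgroup X), ∀ u ∈ U, s * u * s⁻¹ = h * u * h⁻¹ := by
  let Y : Subgroup X :=
    { carrier := {h | ∀ u ∈ U, h * u * h⁻¹ * u⁻¹ ∈ R}
      one_mem' := fun u _ => by simp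
      mul_mem' := by
        intro a b ha hb u hu
        have e : a * b * u * (a * b)⁻¹ * u⁻¹ =
            a * (b * u * b⁻¹ * u⁻¹) * a⁻¹ * (a * u * a⁻¹ * u⁻¹) := by group
        rw [e]
        exact R.mul_mem (hR.conj_mem _ (hb u hu) a) (ha u hu)
      inv_mem' := by
        intro a ha u hu
        have e : a⁻¹ * u * a⁻¹⁻¹ * u⁻¹ = a⁻¹ * (a * u * a⁻¹ * u⁻¹)⁻¹ * a⁻¹⁻¹ := by group
        rw [e]
        exact hR.conj_mem _ (R.inv_mem (ha u hu)) a⁻¹ }
  have hYmem : ∀ y : X, y ∈ Y ↔ ∀ u ∈ U, y * u * y⁻¹ * u⁻¹ ∈ R := fun _ => Iff.rfl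
  have hYN : Y ≤ Subgroup.normalizer (U : Set X) := by
    intro y hy
    apply mem_normalizer_iff_smul.2
    apply conj_smul_eq_of_le
    rintro _ ⟨u, hu, rfl⟩
    have := U.mul_mem (hRU (hy u hu)) hu
    simpa using this
  have hconjU : ∀ n ∈ Subgroup.normalizer (U : Set X), ∀ u ∈ U, n⁻¹ * u * n ∈ U := by
    intro n hn u hu
    have := (Subgroup.mem_normalizer_iff.1 (Subgroup.inv_mem _ hn) u).1 hu
    simpa using this
  have hYn : ∀ n ∈ Subgroup.normalizer (U : Set X), MulAut.conj n • Y = Y := by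
    intro n hn
    apply conj_smul_eq_of_le
    rintro _ ⟨y, hy, rfl⟩
    rw [hYmem]
    intro u hu
    have h1 := hy (n⁻¹ * u * n) (hconjU n hn u hu)
    have h2 := hR.conj_mem _ h1 n
    have e : n * (y * (n⁻¹ * u * n) * y⁻¹ * (n⁻¹ * u * n)⁻¹) * n⁻¹ =
        n * y * n⁻¹ * u * (n * y * n⁻¹)⁻¹ * u⁻¹ := by group
    rw [e] at h2
    exact h2
  have hP := relSyl_inf_normal hU hYN hYn
  have hRp : IsPGroup p ↥R := isPGroup_of_le S.2 hRS
  obtain ⟨s, hs, k, hk, rfl⟩ := exists_mul_of_p'_mem (K := Subgroup.centralizer (U : Set X)) hP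
    (by
      intro y hy k hk
      rw [Subgroup.mem_centralizer_iff] at hk ⊢
      intro u hu
      have h1 := hk _ (hconjU y (hYN hy) u hu)
      calc u * (y * k * y⁻¹) = y * ((y⁻¹ * u * y) * k) * y⁻¹ := by group
        _ = y * (k * (y⁻¹ * u * y)) * y⁻¹ := by rw [h1]
        _ = y * k * y⁻¹ * u := by group)
    (by
      intro y hy hcop
      have hyC : y ∈ Subgroup.centralizer (R : Set X) := by
        obtain ⟨s, hs, c, hc, hsc⟩ := hX y
        rw [← QuotientGroup.eq_one_iff]
        obtain ⟨k, hk⟩ := S.2 ⟨s, hs⟩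
        have hk' : s ^ p ^ k = 1 := by
          have := congrArg Subtype.val hk
          simpa using this
        have e1 : (y : X ⧸ Subgroup.centralizer (R : Set X)) = (s : X ⧸ _) := by
          rw [eq_comm, QuotientGroup.eq, hsc]
          simpa using hc
        refine eq_one_of_pow_coprime (Nat.Coprime.pow_right k hcop) ?_ ?_
        · rw [← QuotientGroup.mk_pow, pow_orderOf_eq_one]; rfl
        · rw [e1, ← QuotientGroup.mk_pow, hk']; rfl
      rw [Subgroup.mem_centralizer_iff]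
      intro u hu
      have h1 := commute_of_coprime_of_stabilizes hRp hcop
        (fun r hr => ((Subgroup.mem_centralizer_iff.1 hyC) r hr).symm) (hy u hu)
      calc u * y = (y * u * y⁻¹) * y := by rw [h1]
        _ = y * u := by group)
    (show h ∈ Y from hh)
  refine ⟨s, hs.1.1, fun u hu => ?_⟩
  have h1 := (Subgroup.mem_centralizer_iff.1 hk) u hu
  calc s * u * s⁻¹ = s * (u * k) * k⁻¹ * s⁻¹ := by group
    _ = s * (k * u) * k⁻¹ * s⁻¹ := by rw [h1]
    _ = s * k * u * (s * k)⁻¹ := by group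

variable {𝓦 : Set (∀ (Q : Type u) [Group Q], Subgroup Q)}

/-- the inductive step of the section theorem for strong fusion. -/
theorem CF_step (h𝓦 : ∀ W ∈ 𝓦, IsCharPFunctor.{u} p W)
    (hsub : ∀ H : Subgroup X, H ≠ ⊤ → CF p 𝓦 ↥H)
    (hquot : ∀ (N : Subgroup X) [N.Normal], N ≠ ⊥ → CF p 𝓦 (X ⧸ N))
    (hcons : Subgroup.centralizer ((pCore p X : Subgroup X) : Set X) ≤ pCore p X → CF p 𝓦 X) :
    CF p 𝓦 X := by
  obtain ⟨S⟩ : Nonempty (Sylow p X) := Sylow.nonempty
  have hn : (pCore p X).Normal := pCore_normal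
  by_cases hR0 : pCore p X = ⊥
  · refine Cfsg.Agent.S1959.result S (ind X 𝓦) (ind_isConjugacyFunctor h𝓦) ?_
    intro T hTS hT0 _
    refine familyControlsStrongFusionIn_of_subgroup h𝓦 _ (hsub _ ?_)
    intro htop
    have h1 : T.Normal := Subgroup.normalizer_eq_top_iff.1 htop
    have h2 := le_pCore h1 (isPGroup_of_le S.2 hTS)
    rw [hR0, le_bot_iff] at h2
    exact hT0 h2
  by_cases hC : Subgroup.centralizer ((pCore p X : Subgroup X) : Set X) ≤ pCore p X
  · exact hcons hC
  have hRS : pCore p X ≤ (S : Subgroup X) := pCore_le_sylow S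
  set R := pCore p X with hRdef
  set C := Subgroup.centralizer (R : Set X) with hCdef
  have hQM := relSyl_inf_normal' S (C ⊔ R)
  by_cases hNQ : Subgroup.normalizer (((S : Subgroup X) ⊓ (C ⊔ R) : Subgroup X) : Set X) = ⊤
  · have hQn : ((S : Subgroup X) ⊓ (C ⊔ R)).Normal := Subgroup.normalizer_eq_top_iff.1 hNQ
    have hQR : (S : Subgroup X) ⊓ (C ⊔ R) ≤ R := le_pCore hQn (isPGroup_of_le S.2 inf_le_left)
    have hSC : (S : Subgroup X) ⊓ C ≤ R := (inf_le_inf_left _ le_sup_left).trans hQR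
    have hZ : RelSyl p ((S : Subgroup X) ⊓ C) C := relSyl_inf_normal' S C
    have hcent : C ≤ Subgroup.centralizer (((S : Subgroup X) ⊓ C : Subgroup X) : Set X) :=
      Subgroup.centralizer_le hSC
    have hne : ¬ C ≤ (S : Subgroup X) ⊓ C := fun h => hC (h.trans hSC)
    obtain ⟨D, hDn, hD0, hDc, -⟩ := exists_normal_p'_of_central_sylow hZ hcent hne
    exact CF_of_quotient_p' h𝓦 hDc (hquot D hD0)
  rw [CF_iff h𝓦 S]
  have hG := fusionRel_goodX 𝓦 (S : Subgroup X)
  have hSNQ : (S : Subgroup X) ≤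
      Subgroup.normalizer (((S : Subgroup X) ⊓ (C ⊔ R) : Subgroup X) : Set X) := by
    intro s hs
    rw [mem_normalizer_iff_smul, Subgroup.smul_inf, Subgroup.conj_smul_eq_self_of_mem hs,
      Subgroup.Normal.conj_smul_eq_self]
  have hStop : (S : Subgroup X) ≠ ⊤ := by
    intro h
    exact hNQ (top_le_iff.1 (h ▸ hSNQ))
  by_cases hSM : (S : Subgroup X) ⊔ (C ⊔ R) = ⊤
  · -- the case `X = S C`
    have hX : ∀ x : X, ∃ s ∈ (S : Subgroup X), ∃ c ∈ C, x = s * c := by
      intro x
      have hx : x ∈ (S : Subgroup X) ⊔ (C ⊔ R) := by rw [hSM]; exact Subgroup.mem_top x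
      obtain ⟨s, hs, m, hm, rfl⟩ := Subgroup.mem_sup_of_normal_right.1 hx
      rw [sup_comm] at hm
      obtain ⟨r, hr, c, hc, rfl⟩ := Subgroup.mem_sup_of_normal_right.1 hm
      exact ⟨s * r, (S : Subgroup X).mul_mem hs (hRS hr), c, hc, by group⟩
    let π := QuotientGroup.mk' R
    have hπ : Function.Surjective π := QuotientGroup.mk'_surjective R
    let S' : Sylow p (X ⧸ R) := S.mapSurjective hπ
    have hS'0 : (S' : Subgroup (X ⧸ R)) ≠ ⊥ := by
      intro h0
      have h1 : (S : Subgroup X) ≤ R := by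
        intro s hs
        have : π s ∈ (S' : Subgroup (X ⧸ R)) := Subgroup.mem_map_of_mem π hs
        rw [h0, Subgroup.mem_bot] at this
        exact (QuotientGroup.eq_one_iff s).1 this
      apply hNQ
      have h2 : (S : Subgroup X) ⊓ (C ⊔ R) = R :=
        le_antisymm (inf_le_left.trans h1) (le_inf hRS le_sup_right)
      rw [h2]
      exact Subgroup.normalizer_eq_top_iff.2 hn
    have hstep : ∀ W ∈ 𝓦, ∀ x : X, QuotientGroup.mk' R x ∈ Subgroup.normalizer
        ((inducedFunctor W ((S : Subgroup X).map (QuotientGroup.mk' R)) : Subgroup (X ⧸ R)) :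
          Set (X ⧸ R)) →
        ∀ B : Set X, B ⊆ (S : Subgroup X) → MulAut.conj x • B ⊆ (S : Subgroup X) →
          GoodX 𝓦 (S : Subgroup X) B x := by
      intro W hW x hx B hB hxB
      have hcf := isConjugacyFunctor_induced (G := X ⧸ R) (h𝓦 W hW)
      set N' := Subgroup.normalizer ((inducedFunctor W (S' : Subgroup (X ⧸ R)) :
        Subgroup (X ⧸ R)) : Set (X ⧸ R)) with hN'
      let H := N'.comap π
      have hHtop : H ≠ ⊤ := by
        intro htop
        have h2 : N' = ⊤ := by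
          rw [← Subgroup.map_comap_eq_self_of_surjective hπ N']
          show H.map π = ⊤
          rw [htop, ← MonoidHom.range_eq_map, MonoidHom.range_eq_top.2 hπ]
        have h3 : (inducedFunctor W (S' : Subgroup (X ⧸ R))).Normal :=
          Subgroup.normalizer_eq_top_iff.1 h2
        have h4 : inducedFunctor W (S' : Subgroup (X ⧸ R)) ≤ pCore p (X ⧸ R) :=
          le_pCore h3 (isPGroup_of_le S'.2 (IsConjugacyFunctor.le hcf S'.2))
        rw [pCore_quotient_pCore, le_bot_iff] at h4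
        exact IsConjugacyFunctor.ne_bot hcf S'.2 hS'0 h4
      have hSH : (S : Subgroup X) ≤ H := by
        intro s hs
        show π s ∈ N'
        exact (Subgroup.le_normalizer.trans (IsConjugacyFunctor.normalizer_le hcf S'.2))
          (Subgroup.mem_map_of_mem π hs)
      exact goodX_of_sub h𝓦 S hSH (hsub H hHtop) (show x ∈ H from hx) hB hxB
    intro A g hA hg
    have hA₁ : A ∪ (R : Set X) ⊆ (S : Subgroup X) := Set.union_subset hA hRS
    have hg₁ : MulAut.conj g • (A ∪ (R : Set X)) ⊆ (S : Subgroup X) := by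
      rw [Set.smul_set_union]
      refine Set.union_subset hg ?_
      rw [← Subgroup.coe_pointwise_smul, Subgroup.Normal.conj_smul_eq_self]
      exact hRS
    refine hG.mono (A ∪ (R : Set X)) _ _ Set.subset_union_left ?_
    refine hG.of_stepChain_inv (fun B => (R : Set X) ⊆ B) ?_ ?_ Set.subset_union_right
      (alperin_fullyNormalized S _ hA₁ g hg₁)
    · intro B k hB
      have : MulAut.conj k • (R : Set X) = R := by
        rw [← Subgroup.coe_pointwise_smul, Subgroup.Normal.conj_smul_eq_self]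
      rw [← this]
      exact Set.smul_set_mono hB
    · rintro B x hRB ⟨U, ⟨hUS, hU⟩, hxU, hBU⟩
      refine hG.mono _ _ _ hBU ?_
      have hRU : R ≤ U := hRB.trans hBU
      have hxU' : MulAut.conj x • (U : Set X) ⊆ (S : Subgroup X) :=
        (smul_subset_of_mem_normalizer hxU le_rfl).trans hUS
      obtain ⟨k, hk, hk'⟩ := exists_goodX_lift h𝓦 S hRS (hquot R hR0) hstep U hUS x hxU'
      have hh : ∀ u ∈ U, (k⁻¹ * x) * u * (k⁻¹ * x)⁻¹ * u⁻¹ ∈ R := by
        intro u hu
        rw [← QuotientGroup.eq_one_iff]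
        have h1 := hk' u hu
        have e : (k⁻¹ * x) * u * (k⁻¹ * x)⁻¹ * u⁻¹ = k⁻¹ * (x * u * x⁻¹) * k * u⁻¹ := by group
        rw [e]
        show π (k⁻¹ * (x * u * x⁻¹) * k * u⁻¹) = 1
        rw [map_mul, map_mul, map_mul]
        show π k⁻¹ * QuotientGroup.mk' R (x * u * x⁻¹) * π k * π u⁻¹ = 1
        rw [← h1]
        show π k⁻¹ * π (k * u * k⁻¹) * π k * π u⁻¹ = 1
        rw [← map_mul, ← map_mul, ← map_mul]
        have e2 : k⁻¹ * (k * u * k⁻¹) * k * u⁻¹ = 1 := by group
        rw [e2, map_one]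
      obtain ⟨s, hs, hs'⟩ := exists_mem_sylow_of_trivial_mod S hRS hX hRU hU hh
      have g1 : GoodX 𝓦 (S : Subgroup X) (U : Set X) s :=
        goodX_of_sub h𝓦 S le_rfl (hsub _ hStop) hs hUS (by
          rintro _ ⟨u, hu, rfl⟩
          exact (S : Subgroup X).mul_mem ((S : Subgroup X).mul_mem hs (hUS hu))
            ((S : Subgroup X).inv_mem hs))
      have g2 : GoodX 𝓦 (S : Subgroup X) (U : Set X) (k⁻¹ * x) := hG.congr _ _ _ hs' g1
      have hsubU : MulAut.conj (k⁻¹ * x) • (U : Set X) ⊆ U := by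
        rintro _ ⟨u, hu, rfl⟩
        have := U.mul_mem (hRU (hh u hu)) hu
        rw [inv_mul_cancel_right] at this
        exact this
      have g3 := hG.trans _ _ _ g2 (hG.mono _ _ _ hsubU hk)
      have e : k * (k⁻¹ * x) = x := by group
      rwa [e] at g3
  · intro A g hA hg
    obtain ⟨y, hy, n, hn', rfl, hnT⟩ := exists_decomp S (C ⊔ R) (T := Subgroup.closure A)
      ((Subgroup.closure_le _).2 hA) (g := g) (closure_conj_smul_le hg)
    have hnA : MulAut.conj n • A ⊆ (S : Subgroup X) := by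
      refine (Set.smul_set_mono Subgroup.subset_closure).trans ?_
      rw [← Subgroup.coe_pointwise_smul]
      exact hnT
    have g1 : GoodX 𝓦 (S : Subgroup X) A n := goodX_of_sub h𝓦 S hSNQ (hsub _ hNQ) hn' hA hnA
    have g2 : GoodX 𝓦 (S : Subgroup X) (MulAut.conj n • A) y :=
      goodX_of_sub h𝓦 S le_sup_left (hsub _ hSM) ((le_sup_right : C ⊔ R ≤ _) hy) hnA
        (by rw [conj_smul_smul]; exact hg)
    exact hG.trans _ _ _ g1 g2

/-- the section theorem for strong fusion. -/
theorem CF_of_involves {G : Type u} [Group G] [Finite G]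
    (h𝓦 : ∀ W ∈ 𝓦, IsCharPFunctor.{u} p W)
    (hloc : ∀ (K R : Subgroup G) [(R.subgroupOf K).Normal],
      Subgroup.centralizer ((pCore p (↥K ⧸ R.subgroupOf K) : Subgroup (↥K ⧸ R.subgroupOf K)) :
        Set (↥K ⧸ R.subgroupOf K)) ≤ pCore p (↥K ⧸ R.subgroupOf K) →
      CF p 𝓦 (↥K ⧸ R.subgroupOf K)) :
    ∀ (Y : Type u) [Group Y], Involves Y G → CF p 𝓦 Y := by
  have main : ∀ (n : ℕ) (Y : Type u) [Group Y], Nat.card Y = n → Involves Y G → CF p 𝓦 Y := by
    intro n
    induction n using Nat.strong_induction_on with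
    | _ n ih =>
      intro Y _ hn hY
      obtain ⟨K, R, hR, ⟨e⟩⟩ := hY
      have hcard : Nat.card (↥K ⧸ R.subgroupOf K) = n := by
        rw [← hn]; exact Nat.card_congr e.toEquiv
      have hsec : Involves (↥K ⧸ R.subgroupOf K) G := involves_section K R
      refine familyControlsStrongFusionIn_of_equiv h𝓦 e ?_
      refine CF_step h𝓦 ?_ ?_ (hloc K R)
      · intro H hH
        exact ih _ (hcard ▸ card_subgroup_lt hH) ↥H rfl
          (involves_trans (involves_subgroup H (involves_self ↥H)) hsec)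
      · intro N _ hN
        exact ih _ (hcard ▸ card_quotient_lt hN) _ rfl
          (involves_trans (involves_quotient N (involves_self _)) hsec)
  intro Y _ hY
  exact main _ Y rfl hY

end Cfsg.Agent.Lib.Helper33
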