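import Cfsg.Agent.Lib.Helper33.TripleFactor
import Cfsg.Agent.Lib.Helper33.TransferInj

set_option autoImplicit false

namespace Cfsg.Agent.Lib.Helper33

open scoped Pointwise
open Cfsg

universe u

theorem Fac_congr {Y : Type u} [Group Y] {p : ℕ} {W : ∀ (Q : Type u) [Group Q], Subgroup Q}
    {D D' : Subgroup Y} [D.Normal] [D'.Normal] (e : D = D') (h : Fac p W (Y ⧸ D)) :
    Fac p W (Y ⧸ D') := by
  subst e
  exact h

variable {G : Type u} [Group G] [Finite G] {p : ℕ} [Fact p.Prime]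
  {W : ∀ (Q : Type u) [Group Q], Subgroup Q}

/-- the factorization `X = C_X(Ω₁Z(S)) N_X(W(S))` for a subgroup `X ⊇ S` normalizing an abelian
subgroup `A` with `Ω₁Z(S) ≤ A ≤ S`. -/
theorem factor_of_abelian (hW : IsCharPFunctor.{u} p W)
    (hF : ∀ (K R : Subgroup G) [(R.subgroupOf K).Normal], Fac p W (↥K ⧸ R.subgroupOf K))
    (S : Sylow p G) {X A : Subgroup G} (hSX : (S : Subgroup G) ≤ X) (hAS : A ≤ (S : Subgroup G))
    (hAab : A ≤ Subgroup.centralizer (A : Set G)) (hAX : ∀ x ∈ X, MulAut.conj x • A = A)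
    (hZA : ZZ p (S : Subgroup G) ≤ A) {x : G} (hx : x ∈ X) :
    ∃ a ∈ X ⊓ Subgroup.centralizer ((ZZ p (S : Subgroup G) : Subgroup G) : Set G),
      ∃ b ∈ X ⊓ Subgroup.normalizer ((inducedFunctor W (S : Subgroup G) : Subgroup G) : Set G),
        x = a * b := by
  set K := X ⊓ Subgroup.centralizer (A : Set G) with hK
  have hKn : ∀ x ∈ X, MulAut.conj x • K = K := by
    intro x hx
    rw [hK, Subgroup.smul_inf, Subgroup.conj_smul_eq_self_of_mem hx, smul_centralizer,
      ← Subgroup.coe_pointwise_smul, hAX x hx]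
  have hrelS : RelSyl p (S : Subgroup G) X := (relSyl_top S).mono hSX le_top
  set P := (S : Subgroup G) ⊓ K with hPdef
  have hP : RelSyl p P K := relSyl_inf_normal hrelS inf_le_left hKn
  obtain ⟨c, hc, n, hn, rfl⟩ := frattini hP x (hKn x hx)
  have hnX : n ∈ X := by
    have := X.mul_mem (X.inv_mem hc.1) hx
    simpa using this
  set X₁ := X ⊓ Subgroup.normalizer (P : Set G) with hX₁
  have hSX₁ : (S : Subgroup G) ≤ X₁ := by
    refine le_inf hSX ?_
    intro s hs
    rw [mem_normalizer_iff_smul, hPdef, Subgroup.smul_inf, Subgroup.conj_smul_eq_self_of_mem hs,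
      hKn s (hSX hs)]
  have hrel₁ : RelSyl p (S : Subgroup G) X₁ := (relSyl_top S).mono hSX₁ le_top
  let T : Sylow p ↥X₁ := hrel₁.toSylow
  have hT : (T : Subgroup ↥X₁) = (S : Subgroup G).subgroupOf X₁ := rfl
  have hAn : (A.subgroupOf X₁).Normal := by
    refine ⟨fun a ha y => ?_⟩
    rw [Subgroup.mem_subgroupOf] at ha ⊢
    have h1 : (y : G) * a * (y : G)⁻¹ ∈ MulAut.conj (y : G) • A := ⟨a, ha, rfl⟩
    rw [hAX _ y.2.1] at h1
    exact h1
  have hmemP : ∀ w : ↥X₁, w ∈ (T : Subgroup ↥X₁) ⊓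
      Subgroup.centralizer ((A.subgroupOf X₁ : Subgroup ↥X₁) : Set ↥X₁) ↔ (w : G) ∈ P := by
    intro w
    constructor
    · rintro ⟨h1, h2⟩
      refine ⟨Subgroup.mem_subgroupOf.1 h1, w.2.1, ?_⟩
      apply Subgroup.mem_centralizer_iff.2
      intro a ha
      have := (Subgroup.mem_centralizer_iff.1 h2) ⟨a, hSX₁ (hAS ha)⟩ (Subgroup.mem_subgroupOf.2 ha)
      exact congrArg Subtype.val this
    · rintro ⟨h1, -, h2⟩
      refine ⟨Subgroup.mem_subgroupOf.2 h1, ?_⟩
      apply Subgroup.mem_centralizer_iff.2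
      intro a ha
      exact Subtype.ext ((Subgroup.mem_centralizer_iff.1 h2) a (Subgroup.mem_subgroupOf.1 ha))
  have hPn : ((T : Subgroup ↥X₁) ⊓
      Subgroup.centralizer ((A.subgroupOf X₁ : Subgroup ↥X₁) : Set ↥X₁)).Normal := by
    refine ⟨fun w hw y => ?_⟩
    rw [hmemP] at hw ⊢
    exact (Subgroup.mem_normalizer_iff.1 y.2.2 _).1 hw
  have hfac : ∀ (D : Subgroup ↥X₁) [D.Normal], Fac p W (↥X₁ ⧸ D) := by
    intro D hD
    have e : (D.map X₁.subtype).subgroupOf X₁ = D :=
      Subgroup.comap_map_eq_self_of_injective (Subgroup.subtype_injective _) _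
    have hn' : ((D.map X₁.subtype).subgroupOf X₁).Normal := by rw [e]; exact hD
    exact Fac_congr e (hF X₁ (D.map X₁.subtype))
  obtain ⟨a, ha, b, hb, hab⟩ := factor_of_normal hW hfac T (A := A.subgroupOf X₁)
    (by
      intro a ha
      exact Subgroup.mem_subgroupOf.2 (hAS (Subgroup.mem_subgroupOf.1 ha)))
    (by
      intro a ha
      rw [Subgroup.mem_centralizer_iff]
      intro a' ha'
      exact Subtype.ext ((Subgroup.mem_centralizer_iff.1 (hAab (Subgroup.mem_subgroupOf.1 ha))) a'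
        (Subgroup.mem_subgroupOf.1 ha')))
    (by
      unfold ZZ omegaOne
      rw [Subgroup.closure_le]
      rintro z ⟨⟨hz1, hz2⟩, hz3⟩
      apply Subgroup.mem_subgroupOf.2
      apply hZA
      refine mem_ZZ (Subgroup.mem_subgroupOf.1 hz1) ?_ ?_
      · rw [Subgroup.mem_centralizer_iff]
        intro s hs
        have := (Subgroup.mem_centralizer_iff.1 hz2) ⟨s, hSX₁ hs⟩ (Subgroup.mem_subgroupOf.2 hs)
        exact congrArg Subtype.val this
      · have := congrArg Subtype.val hz3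
        simpa using this)
    hPn ⟨n, hnX, hn⟩
  have hab' : n = (a : G) * (b : G) := congrArg Subtype.val hab
  have haC : (a : G) ∈ Subgroup.centralizer ((ZZ p (S : Subgroup G) : Subgroup G) : Set G) := by
    apply mem_centralizer_ZZ
    intro z hz1 hz2 hz3
    have h1 : (⟨z, hSX₁ hz1⟩ : ↥X₁) ∈ ZZ p (T : Subgroup ↥X₁) := by
      refine mem_ZZ (Subgroup.mem_subgroupOf.2 hz1) ?_ (Subtype.ext (by simpa using hz3))
      rw [Subgroup.mem_centralizer_iff]
      intro s hs
      exact Subtype.ext ((Subgroup.mem_centralizer_iff.1 hz2) s (Subgroup.mem_subgroupOf.1 hs))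
    exact congrArg Subtype.val ((Subgroup.mem_centralizer_iff.1 ha) _ h1)
  have hbN : (b : G) ∈
      Subgroup.normalizer ((inducedFunctor W (S : Subgroup G) : Subgroup G) : Set G) := by
    have h1 := (mem_normalizer_map_iff (Subgroup.subtype_injective X₁) _ b).2 hb
    rw [← inducedFunctor_map hW X₁.subtype _ T.2 (Subgroup.subtype_injective X₁).injOn, hT,
      Subgroup.map_subgroupOf_eq_of_le hSX₁] at h1
    exact h1
  refine ⟨c * a, ⟨X.mul_mem hc.1 a.2.1, Subgroup.mul_mem _ ?_ haC⟩, b, ⟨b.2.1, hbN⟩, ?_⟩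
  · exact Subgroup.centralizer_le hZA hc.2
  · rw [hab']; group

end Cfsg.Agent.Lib.Helper33
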