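import Cfsg.Agent.Lib.Helper33.TripleFactor2

set_option autoImplicit false

namespace Cfsg.Agent.Lib.Helper33

open scoped Pointwise
open Cfsg

universe u

/-- the normal closure of `Z` in `X`, as a subgroup of `G`. -/
def nc {G : Type*} [Group G] (Z X : Subgroup G) : Subgroup G :=
  (Subgroup.normalClosure ((Z.subgroupOf X : Subgroup ↥X) : Set ↥X)).map X.subtype

section nc

variable {G : Type*} [Group G] {Z X : Subgroup G}

theorem le_nc (hZX : Z ≤ X) : Z ≤ nc Z X := fun z hz =>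
  ⟨⟨z, hZX hz⟩, Subgroup.subset_normalClosure (Subgroup.mem_subgroupOf.2 hz), rfl⟩

theorem conj_smul_nc [Finite G] {x : G} (hx : x ∈ X) : MulAut.conj x • nc Z X = nc Z X := by
  apply conj_smul_eq_of_le
  rintro _ ⟨_, ⟨w, hw, rfl⟩, rfl⟩
  exact ⟨⟨x, hx⟩ * w * ⟨x, hx⟩⁻¹, Subgroup.normalClosure_normal.conj_mem w hw _, rfl⟩

theorem nc_le {B : Subgroup G} (hZB : Z ≤ B) (hB : ∀ x ∈ X, MulAut.conj x • B ≤ B) :
    nc Z X ≤ B := by
  have hn : (B.subgroupOf X).Normal := by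
    refine ⟨fun b hb y => ?_⟩
    exact hB y y.2 ⟨b, hb, rfl⟩
  have h1 : Subgroup.normalClosure ((Z.subgroupOf X : Subgroup ↥X) : Set ↥X) ≤ B.subgroupOf X :=
    Subgroup.normalClosure_le_normal fun z hz => hZB hz
  rintro _ ⟨w, hw, rfl⟩
  exact h1 hw

end nc

variable {G : Type u} [Group G] [Finite G] {p : ℕ} [Fact p.Prime]
  {W₁ W₂ : ∀ (Q : Type u) [Group Q], Subgroup Q}

omit [Fact p.Prime] in
theorem nc_le_ZZ (hW₁ : IsCharPFunctor.{u} p W₁) (S : Sylow p G)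
    (hZ : ZZ p (S : Subgroup G) ≤ inducedFunctor W₁ (S : Subgroup G)) :
    nc (ZZ p (S : Subgroup G))
      (Subgroup.normalizer ((inducedFunctor W₁ (S : Subgroup G) : Subgroup G) : Set G)) ≤
      ZZ p (inducedFunctor W₁ (S : Subgroup G)) := by
  have hcf := isConjugacyFunctor_induced (G := G) hW₁
  refine nc_le ?_ fun x hx => conj_smul_ZZ_le hx
  intro z hz
  exact mem_ZZ (hZ hz) (Subgroup.centralizer_le (IsConjugacyFunctor.le hcf S.2) (ZZ_le _ hz).2)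
    (ZZ_pow hz)

theorem nc_le_nc (hW₁ : IsCharPFunctor.{u} p W₁) (hW₂ : IsCharPFunctor.{u} p W₂)
    (hF₂ : ∀ (K R : Subgroup G) [(R.subgroupOf K).Normal], Fac p W₂ (↥K ⧸ R.subgroupOf K))
    (S : Sylow p G) (hZ : ZZ p (S : Subgroup G) ≤ inducedFunctor W₁ (S : Subgroup G)) :
    nc (ZZ p (S : Subgroup G))
      (Subgroup.normalizer ((inducedFunctor W₁ (S : Subgroup G) : Subgroup G) : Set G)) ≤
    nc (ZZ p (S : Subgroup G))
      (Subgroup.normalizer ((inducedFunctor W₂ (S : Subgroup G) : Subgroup G) : Set G)) := by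
  have hcf₁ := isConjugacyFunctor_induced (G := G) hW₁
  have hcf₂ := isConjugacyFunctor_induced (G := G) hW₂
  set Z := ZZ p (S : Subgroup G) with hZdef
  set N₁ := Subgroup.normalizer ((inducedFunctor W₁ (S : Subgroup G) : Subgroup G) : Set G)
  set N₂ := Subgroup.normalizer ((inducedFunctor W₂ (S : Subgroup G) : Subgroup G) : Set G)
  have hSN₁ : (S : Subgroup G) ≤ N₁ :=
    Subgroup.le_normalizer.trans (IsConjugacyFunctor.normalizer_le hcf₁ S.2)
  have hSN₂ : (S : Subgroup G) ≤ N₂ :=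
    Subgroup.le_normalizer.trans (IsConjugacyFunctor.normalizer_le hcf₂ S.2)
  have hZS : Z ≤ (S : Subgroup G) := (ZZ_le _).trans inf_le_left
  have hA₁ := nc_le_ZZ hW₁ S hZ
  have hA₁S : nc Z N₁ ≤ (S : Subgroup G) :=
    (hA₁.trans ((ZZ_le _).trans inf_le_left)).trans (IsConjugacyFunctor.le hcf₁ S.2)
  have hab : nc Z N₁ ≤ Subgroup.centralizer ((nc Z N₁ : Subgroup G) : Set G) := by
    intro a ha
    rw [Subgroup.mem_centralizer_iff]
    intro b hb
    exact ZZ_comm (hA₁ hb) (hA₁ ha)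
  have hfac : ∀ x ∈ N₁, ∃ a ∈ N₁ ⊓ Subgroup.centralizer ((Z : Subgroup G) : Set G),
      ∃ b ∈ N₁ ⊓ N₂, x = a * b := fun x hx =>
    factor_of_abelian hW₂ hF₂ S hSN₁ hA₁S hab (fun x hx => conj_smul_nc hx)
      (le_nc (hZS.trans hSN₁)) hx
  let B : Subgroup G := ⨆ m : ↥(N₁ ⊓ N₂), MulAut.conj (m : G) • Z
  have hB1 : Z ≤ B := by
    have := le_iSup (fun m : ↥(N₁ ⊓ N₂) => MulAut.conj (m : G) • Z) 1
    simpa [conj_one_smul'] using this
  have hB2 : ∀ x ∈ N₁, MulAut.conj x • B ≤ B := by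
    intro x hx
    show B.map (MulAut.conj x).toMonoidHom ≤ B
    rw [Subgroup.map_iSup]
    refine iSup_le fun m => ?_
    show MulAut.conj x • MulAut.conj (m : G) • Z ≤ B
    rw [conj_smul_smul']
    obtain ⟨a, ha, b, hb, hab⟩ := hfac (x * m)⁻¹ (N₁.inv_mem (N₁.mul_mem hx m.2.1))
    have e : x * m = b⁻¹ * a⁻¹ := by
      rw [← mul_inv_rev, ← hab, inv_inv]
    have haZ : MulAut.conj a⁻¹ • Z = Z :=
      mem_normalizer_iff_smul.1 (Subgroup.centralizer_le_normalizer _ (Subgroup.inv_mem _ ha.2))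
    rw [e, ← conj_smul_smul', haZ]
    exact le_iSup (fun m : ↥(N₁ ⊓ N₂) => MulAut.conj (m : G) • Z) ⟨b⁻¹, Subgroup.inv_mem _ hb⟩
  refine (nc_le hB1 hB2).trans ?_
  refine iSup_le fun m => ?_
  rw [← conj_smul_nc (Z := Z) m.2.2]
  exact Subgroup.pointwise_smul_le_pointwise_smul_iff.2 (le_nc (hZS.trans hSN₂))

end Cfsg.Agent.Lib.Helper33
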